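import Mathlib
import Cfsg.Agent.Lib.Helper5.LinearCard
import Cfsg.Agent.Lib.Helper17.AutSq
import Cfsg.Agent.Lib.Helper56.FrobComplement

set_option autoImplicit false
set_option linter.style.haveILetI false

/-!
# Insoluble sharply doubly transitive groups (Zassenhaus)

From the structure theorem for non-solvable Frobenius complements (taken as a hypothesis):
a non-solvable linear group regular on the non-zero vectors is `SL(2,5) × C_m` in degree
`11², 29², 59²`.
-/

namespace Cfsg.Agent.Lib.Helper55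

open Subgroup

theorem sl25_quat : ∃ I J : Matrix.SpecialLinearGroup (Fin 2) (ZMod 5),
    I * I ≠ 1 ∧ (I * I) * (I * I) = 1 ∧ J * J = I * I ∧ I * J = (I * I) * (J * I) := by
  refine ⟨⟨!![2,0;0,3], by decide⟩, ⟨!![0,1;4,0], by decide⟩, ?_, ?_, ?_, ?_⟩ <;> decide

/-- the arithmetic at the end -/
theorem nearfield_arith {q m c : ℕ} (hq : 1 < q) (hc : c = 1 ∨ c = 2) (hm : m ∣ q - 1)
    (hm30 : m.Coprime 30) (h : q ^ 2 - 1 = c * (120 * m)) :
    (c = 1 ∧ ((q = 11 ∧ m = 1) ∨ (q = 29 ∧ m = 7) ∨ (q = 59 ∧ m = 29))) ∨ q = 119 := by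
  obtain ⟨u, hu⟩ := hm
  have hm0 : 0 < m := by
    rcases Nat.eq_zero_or_pos m with h0 | h0
    · subst h0; simp at hm30
    · exact h0
  have hq1 : q = m * u + 1 := by omega
  have h1 : q ^ 2 - 1 = (m * u) * (q + 1) := by
    have : q ^ 2 = (m * u) * (q + 1) + 1 := by
      rw [hq1]; ring
    omega
  have h2 : u * (q + 1) = c * 120 := by
    have : m * (u * (q + 1)) = m * (c * 120) := by
      calc m * (u * (q + 1)) = (m * u) * (q + 1) := by ring
        _ = c * (120 * m) := by rw [← h1, h]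
        _ = m * (c * 120) := by ring
    exact Nat.eq_of_mul_eq_mul_left hm0 this
  have h3 : q + 1 ∣ 240 := by
    rcases hc with rfl | rfl
    · exact Dvd.dvd.trans (⟨u, by rw [mul_comm]; omega⟩ : q + 1 ∣ 120) (by norm_num)
    · exact ⟨u, by rw [mul_comm]; omega⟩
  have h4 : q + 1 ∈ Nat.divisors 240 := Nat.mem_divisors.2 ⟨h3, by norm_num⟩
  have h5 : Nat.divisors 240 = {1,2,3,4,5,6,8,10,12,15,16,20,24,30,40,48,60,80,120,240} := by
    decide +kernel
  rw [h5] at h4
  simp only [Finset.mem_insert, Finset.mem_singleton] at h4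
  rcases h4 with h4 | h4 | h4 | h4 | h4 | h4 | h4 | h4 | h4 | h4 | h4 | h4 | h4 | h4 | h4 | h4 | h4 | h4 | h4 | h4
  · omega
  · omega
  · obtain rfl : q = 2 := by omega
    rcases hc with rfl | rfl
    · obtain rfl : u = 40 := by omega
      omega
    · obtain rfl : u = 80 := by omega
      omega
  · obtain rfl : q = 3 := by omega
    rcases hc with rfl | rfl
    · obtain rfl : u = 30 := by omega
      omega
    · obtain rfl : u = 60 := by omega
      omega
  · obtain rfl : q = 4 := by omega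
    rcases hc with rfl | rfl
    · obtain rfl : u = 24 := by omega
      omega
    · obtain rfl : u = 48 := by omega
      omega
  · obtain rfl : q = 5 := by omega
    rcases hc with rfl | rfl
    · obtain rfl : u = 20 := by omega
      omega
    · obtain rfl : u = 40 := by omega
      omega
  · obtain rfl : q = 7 := by omega
    rcases hc with rfl | rfl
    · obtain rfl : u = 15 := by omega
      omega
    · obtain rfl : u = 30 := by omega
      omega
  · obtain rfl : q = 9 := by omega
    rcases hc with rfl | rfl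
    · obtain rfl : u = 12 := by omega
      omega
    · obtain rfl : u = 24 := by omega
      omega
  · obtain rfl : q = 11 := by omega
    rcases hc with rfl | rfl
    · obtain rfl : u = 10 := by omega
      obtain rfl : m = 1 := by omega
      simp
    · obtain rfl : u = 20 := by omega
      omega
  · obtain rfl : q = 14 := by omega
    rcases hc with rfl | rfl
    · obtain rfl : u = 8 := by omega
      omega
    · obtain rfl : u = 16 := by omega
      omega
  · obtain rfl : q = 15 := by omega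
    rcases hc with rfl | rfl
    · omega
    · obtain rfl : u = 15 := by omega
      omega
  · obtain rfl : q = 19 := by omega
    rcases hc with rfl | rfl
    · obtain rfl : u = 6 := by omega
      obtain rfl : m = 3 := by omega
      exact absurd hm30 (by decide)
    · obtain rfl : u = 12 := by omega
      omega
  · obtain rfl : q = 23 := by omega
    rcases hc with rfl | rfl
    · obtain rfl : u = 5 := by omega
      omega
    · obtain rfl : u = 10 := by omega
      omega
  · obtain rfl : q = 29 := by omega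
    rcases hc with rfl | rfl
    · obtain rfl : u = 4 := by omega
      obtain rfl : m = 7 := by omega
      simp
    · obtain rfl : u = 8 := by omega
      omega
  · obtain rfl : q = 39 := by omega
    rcases hc with rfl | rfl
    · obtain rfl : u = 3 := by omega
      omega
    · obtain rfl : u = 6 := by omega
      omega
  · obtain rfl : q = 47 := by omega
    rcases hc with rfl | rfl
    · omega
    · obtain rfl : u = 5 := by omega
      omega
  · obtain rfl : q = 59 := by omega
    rcases hc with rfl | rfl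
    · obtain rfl : u = 2 := by omega
      obtain rfl : m = 29 := by omega
      simp
    · obtain rfl : u = 4 := by omega
      omega
  · obtain rfl : q = 79 := by omega
    rcases hc with rfl | rfl
    · omega
    · obtain rfl : u = 3 := by omega
      obtain rfl : m = 26 := by omega
      exact absurd hm30 (by decide)
  · obtain rfl : q = 119 := by omega
    rcases hc with rfl | rfl
    · obtain rfl : u = 1 := by omega
      obtain rfl : m = 118 := by omega
      exact absurd hm30 (by decide)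
    · obtain rfl : u = 2 := by omega
      obtain rfl : m = 59 := by omega
      simp
  · obtain rfl : q = 239 := by omega
    rcases hc with rfl | rfl
    · omega
    · obtain rfl : u = 1 := by omega
      obtain rfl : m = 238 := by omega
      exact absurd hm30 (by decide)


/-- internal direct product -/
theorem exists_mulEquiv_prod {H : Type*} [Group H] (S M : Subgroup H) (hbot : S ⊓ M = ⊥)
    (hcomm : ∀ s ∈ S, ∀ x ∈ M, s * x = x * s) :
    Nonempty ((S × M) ≃* (S ⊔ M : Subgroup H)) := by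
  let f : S × M →* H := MonoidHom.noncommCoprod S.subtype M.subtype
    (fun s x => hcomm s.1 s.2 x.1 x.2)
  have hf : Function.Injective f := by
    rw [injective_iff_map_eq_one]
    rintro ⟨s, x⟩ h
    have h1 : (s : H) * (x : H) = 1 := h
    have h2 : (s : H) = (x : H)⁻¹ := eq_inv_of_mul_eq_one_left h1
    have h3 : (s : H) ∈ S ⊓ M := ⟨s.2, by rw [h2]; exact M.inv_mem x.2⟩
    rw [hbot, mem_bot] at h3
    have h4 : (x : H) = 1 := by rw [h3, one_mul] at h1; exact h1
    exact Prod.ext (Subtype.ext h3) (Subtype.ext h4)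
  have hr : f.range = S ⊔ M := by
    have := MonoidHom.noncommCoprod_range S.subtype M.subtype (fun s x => hcomm s.1 s.2 x.1 x.2)
    rw [S.range_subtype, M.range_subtype] at this
    exact this
  exact ⟨(MonoidHom.ofInjective hf).trans (MulEquiv.subgroupCongr hr)⟩

section

variable {p : ℕ} [Fact p.Prime] {V : Type*} [AddCommGroup V] [Module (ZMod p) V] [Finite V]

theorem insoluble_regular (H : Subgroup (V ≃ₗ[ZMod p] V))
    (hreg : ∀ v w : V, v ≠ 0 → w ≠ 0 → ∃! h : H, (h : V ≃ₗ[ZMod p] V) v = w)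
    (hS : ∃ G₀ : Subgroup H, G₀.Normal ∧ (G₀.index = 1 ∨ G₀.index = 2) ∧
      ∃ S M : Subgroup H, S ⊔ M = G₀ ∧ S ⊓ M = ⊥ ∧ (∀ s ∈ S, ∀ x ∈ M, s * x = x * s) ∧
        Nonempty (S ≃* Matrix.SpecialLinearGroup (Fin 2) (ZMod 5)) ∧
        (∀ (p : ℕ) [Fact p.Prime] (P : Sylow p M), IsCyclic P) ∧ (Nat.card M).Coprime 30) :
    (Nat.card V = 121 ∧ Nonempty (H ≃* Matrix.SpecialLinearGroup (Fin 2) (ZMod 5))) ∨
    (Nat.card V = 841 ∧
      Nonempty (H ≃* Matrix.SpecialLinearGroup (Fin 2) (ZMod 5) × Multiplicative (ZMod 7))) ∨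
    (Nat.card V = 3481 ∧
      Nonempty (H ≃* Matrix.SpecialLinearGroup (Fin 2) (ZMod 5) × Multiplicative (ZMod 29))) := by
  obtain ⟨G₀, -, hidx, S, M, hSM, hSMbot, hcomm, ⟨e⟩, -, hM30⟩ := hS
  obtain ⟨I, J, hI1, hI2, hJ, hIJ⟩ := sl25_quat
  have hp : p.Prime := Fact.out
  -- the quaternion elements of `H`
  obtain ⟨i, hiS, j, hjS, hz1, hz2, hjj, hij⟩ : ∃ i ∈ S, ∃ j ∈ S, i * i ≠ 1 ∧
      (i * i) * (i * i) = 1 ∧ j * j = i * i ∧ i * j = (i * i) * (j * i) := by
    refine ⟨(e.symm I : S), (e.symm I).2, (e.symm J : S), (e.symm J).2, ?_, ?_, ?_, ?_⟩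
    · intro h
      apply hI1
      have h1 : e.symm (I * I) = 1 := by
        rw [map_mul]; exact Subtype.ext h
      exact (map_eq_one_iff e.symm e.symm.injective).1 h1
    · have h1 : e.symm ((I * I) * (I * I)) = 1 := by rw [hI2, map_one]
      simp only [map_mul] at h1
      exact congrArg Subtype.val h1
    · have h1 : e.symm (J * J) = e.symm (I * I) := by rw [hJ]
      simp only [map_mul] at h1
      exact congrArg Subtype.val h1
    · have h1 : e.symm (I * J) = e.symm ((I * I) * (J * I)) := by rw [hIJ]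
      simp only [map_mul] at h1
      exact congrArg Subtype.val h1
  have hfpf : ∀ h : H, h ≠ 1 → ∀ v : V, (h : V ≃ₗ[ZMod p] V) v = v → v = 0 := by
    intro h hh v hv
    by_contra hv0
    obtain ⟨h0, -, huniq⟩ := hreg v v hv0 hv0
    exact hh ((huniq h hv).trans (huniq 1 (by simp)).symm)
  have happ : ∀ (a b : H) (v : V), ((a * b : H) : V ≃ₗ[ZMod p] V) v
      = (a : V ≃ₗ[ZMod p] V) ((b : V ≃ₗ[ZMod p] V) v) := fun a b v => rfl
  -- the involution acts as `-1`
  have hz : ∀ v : V, (i : V ≃ₗ[ZMod p] V) ((i : V ≃ₗ[ZMod p] V) v) = -v := by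
    intro v
    have h0 : ((i * i : H) : V ≃ₗ[ZMod p] V) (((i * i : H) : V ≃ₗ[ZMod p] V) v) = v := by
      rw [← happ, hz2]; rfl
    have h1 := hfpf (i * i) hz1 (((i * i : H) : V ≃ₗ[ZMod p] V) v + v) (by
      rw [map_add, h0, add_comm])
    rw [happ] at h1
    exact eq_neg_of_add_eq_zero_left h1
  have hjz : ∀ v : V, (j : V ≃ₗ[ZMod p] V) ((j : V ≃ₗ[ZMod p] V) v) = -v := by
    intro v
    rw [← happ, hjj, happ, hz]
  have hijv : ∀ v : V, (i : V ≃ₗ[ZMod p] V) ((j : V ≃ₗ[ZMod p] V) v)
      = -(j : V ≃ₗ[ZMod p] V) ((i : V ≃ₗ[ZMod p] V) v) := by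
    intro v
    rw [← happ, hij, happ, happ, happ, hz]
  have hjiv : ∀ v : V, (j : V ≃ₗ[ZMod p] V) ((i : V ≃ₗ[ZMod p] V) v)
      = -(i : V ≃ₗ[ZMod p] V) ((j : V ≃ₗ[ZMod p] V) v) := by
    intro v
    rw [hijv, neg_neg]
  -- a nonzero vector
  obtain ⟨v₀, hv₀⟩ : ∃ v₀ : V, v₀ ≠ 0 := by
    by_contra hcon
    push Not at hcon
    apply hz1
    apply Subtype.ext
    apply LinearEquiv.ext
    intro v
    rw [hcon v, map_zero, map_zero]
  have hp2 : p ≠ 2 := by
    rintro rfl
    have h1 : ((i * i : H) : V ≃ₗ[ZMod 2] V) v₀ = v₀ := by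
      rw [happ, hz]
      have h2 : (2 : ZMod 2) • v₀ = 0 := by
        have : (2 : ZMod 2) = 0 := by exact_mod_cast ZMod.natCast_self 2
        rw [this, zero_smul]
      rw [two_smul] at h2
      exact (eq_neg_of_add_eq_zero_left h2).symm
    exact hv₀ (hfpf _ hz1 _ h1)
  have h2ne : (2 : ZMod p) ≠ 0 := by
    intro h
    have h1 : ((2 : ℕ) : ZMod p) = 0 := by exact_mod_cast h
    rw [ZMod.natCast_eq_zero_iff] at h1
    exact hp2 ((Nat.prime_dvd_prime_iff_eq hp Nat.prime_two).1 h1)
  obtain ⟨a, b, hab⟩ := ZMod.sq_add_sq p (-1)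
  -- the involution `w = a i + b i j` of `End V`
  let w : V →ₗ[ZMod p] V := a • (i : V ≃ₗ[ZMod p] V).toLinearMap
    + b • ((i : V ≃ₗ[ZMod p] V).toLinearMap ∘ₗ (j : V ≃ₗ[ZMod p] V).toLinearMap)
  have hw : ∀ v : V, w v = a • (i : V ≃ₗ[ZMod p] V) v
      + b • (i : V ≃ₗ[ZMod p] V) ((j : V ≃ₗ[ZMod p] V) v) := fun v => rfl
  have hww : ∀ v : V, w (w v) = v := by
    intro v
    rw [hw (w v), hw v]
    simp only [map_add, map_smul, hz, hjiv, map_neg, hjz, neg_neg]
    linear_combination (norm := module) (-hab) • v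
  have hjw : ∀ v : V, (j : V ≃ₗ[ZMod p] V) (w v) = - w ((j : V ≃ₗ[ZMod p] V) v) := by
    intro v
    rw [hw v, hw]
    simp only [map_add, map_smul, hjiv, map_neg, hjz, neg_neg]
    module
  have hwj : ∀ v : V, w ((j : V ≃ₗ[ZMod p] V) v) = - (j : V ≃ₗ[ZMod p] V) (w v) := by
    intro v
    rw [hjw, neg_neg]
  let Vp : Submodule (ZMod p) V := LinearMap.ker (w - LinearMap.id)
  have hVp : ∀ v : V, v ∈ Vp ↔ w v = v := by
    intro v
    rw [LinearMap.mem_ker, LinearMap.sub_apply, LinearMap.id_apply, sub_eq_zero]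
  have htwo : ∀ v : V, v = -v → v = 0 := by
    intro v hv
    have h1 : (2 : ZMod p) • v = 0 := by
      rw [two_smul]
      nth_rewrite 2 [hv]
      exact add_neg_cancel v
    exact (smul_eq_zero.1 h1).resolve_left h2ne
  -- `V = V₊ ⊕ j V₊`
  have hcardV : Nat.card V = Nat.card Vp ^ 2 := by
    let f : Vp × Vp → V := fun x => (x.1 : V) + (j : V ≃ₗ[ZMod p] V) (x.2 : V)
    have hf : Function.Bijective f := by
      constructor
      · rintro ⟨x, y⟩ ⟨x', y'⟩ h
        have h0 : (x : V) + (j : V ≃ₗ[ZMod p] V) (y : V)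
            = (x' : V) + (j : V ≃ₗ[ZMod p] V) (y' : V) := h
        have hx := (hVp _).1 x.2
        have hx' := (hVp _).1 x'.2
        have hy := (hVp _).1 y.2
        have hy' := (hVp _).1 y'.2
        have h1 := congrArg w h0
        rw [map_add, map_add, hx, hx', hwj, hwj, hy, hy'] at h1
        have h2 : (x : V) - x' = -((x : V) - x') := by
          have e1 : (x : V) - x' = (j : V ≃ₗ[ZMod p] V) (y' : V) - (j : V ≃ₗ[ZMod p] V) (y : V) := by
            linear_combination (norm := module) h0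
          have e2 : (x : V) - x' = -((j : V ≃ₗ[ZMod p] V) (y' : V) - (j : V ≃ₗ[ZMod p] V) (y : V)) := by
            linear_combination (norm := module) h1
          rw [← e1] at e2
          exact e2
        have h3 : (x : V) = x' := sub_eq_zero.1 (htwo _ h2)
        rw [h3] at h0
        have h4 : (y : V) = y' := (j : V ≃ₗ[ZMod p] V).injective (add_left_cancel h0)
        exact Prod.ext (Subtype.ext h3) (Subtype.ext h4)
      · intro v
        set c : ZMod p := (2 : ZMod p)⁻¹ with hc
        have hc2 : c + c = 1 := by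
          rw [← two_mul, hc, mul_inv_cancel₀ h2ne]
        have hx : c • (v + w v) ∈ Vp := by
          rw [hVp, map_smul, map_add, hww, add_comm]
        have hu : w (c • (v - w v)) = -(c • (v - w v)) := by
          rw [map_smul, map_sub, hww, ← smul_neg, neg_sub]
        have hy : -(j : V ≃ₗ[ZMod p] V) (c • (v - w v)) ∈ Vp := by
          rw [hVp, map_neg, hwj, hu, map_neg, neg_neg]
        refine ⟨(⟨_, hx⟩, ⟨_, hy⟩), ?_⟩
        change c • (v + w v) + (j : V ≃ₗ[ZMod p] V) (-(j : V ≃ₗ[ZMod p] V) (c • (v - w v))) = v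
        rw [map_neg, hjz, neg_neg]
        linear_combination (norm := module) hc2 • v
    rw [← Nat.card_congr (Equiv.ofBijective f hf), Nat.card_prod, sq]
  -- `|H| = |V| - 1`
  have hcardH : Nat.card H = Nat.card V - 1 := by
    let f : H → {v : V // v ≠ 0} := fun h => ⟨(h : V ≃ₗ[ZMod p] V) v₀, by
      intro h0
      exact hv₀ ((h : V ≃ₗ[ZMod p] V).map_eq_zero_iff.1 h0)⟩
    have hf : Function.Bijective f := by
      constructor
      · intro h h' hh
        have h1 : (h : V ≃ₗ[ZMod p] V) v₀ = (h' : V ≃ₗ[ZMod p] V) v₀ := congrArg Subtype.val hh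
        obtain ⟨h0, -, huniq⟩ := hreg v₀ _ hv₀ (f h').2
        exact (huniq h h1).trans (huniq h' rfl).symm
      · rintro ⟨v, hv⟩
        obtain ⟨h0, hh0, -⟩ := hreg v₀ v hv₀ hv
        exact ⟨h0, Subtype.ext hh0⟩
    rw [Nat.card_congr (Equiv.ofBijective f hf)]
    classical
    haveI := Fintype.ofFinite V
    rw [Nat.card_eq_fintype_card, Nat.card_eq_fintype_card, Fintype.card_subtype_compl]
    simp
  -- `M` commutes with `w`
  have hMw : ∀ m ∈ M, ∀ v : V, w ((m : V ≃ₗ[ZMod p] V) v) = (m : V ≃ₗ[ZMod p] V) (w v) := by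
    intro m hm v
    have h1 : ∀ u : V, (i : V ≃ₗ[ZMod p] V) ((m : V ≃ₗ[ZMod p] V) u)
        = (m : V ≃ₗ[ZMod p] V) ((i : V ≃ₗ[ZMod p] V) u) := by
      intro u
      rw [← happ, hcomm i hiS m hm, happ]
    have h2 : ∀ u : V, (j : V ≃ₗ[ZMod p] V) ((m : V ≃ₗ[ZMod p] V) u)
        = (m : V ≃ₗ[ZMod p] V) ((j : V ≃ₗ[ZMod p] V) u) := by
      intro u
      rw [← happ, hcomm j hjS m hm, happ]
    rw [hw, hw, h1, h2, h1, map_add, map_smul, map_smul]
  -- `|M|` divides `|V₊| - 1`
  have hMdvd : Nat.card M ∣ Nat.card Vp - 1 := by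
    let act : MulAction M {x : Vp // x ≠ 0} :=
      { smul := fun m x => ⟨⟨((m : H) : V ≃ₗ[ZMod p] V) (x.1 : V), by
            rw [hVp, hMw _ m.2, (hVp _).1 x.1.2]⟩, by
            intro h0
            apply x.2
            have h1 : ((m : H) : V ≃ₗ[ZMod p] V) (x.1 : V) = 0 := congrArg Subtype.val h0
            exact Subtype.ext (((m : H) : V ≃ₗ[ZMod p] V).map_eq_zero_iff.1 h1)⟩
        one_smul := fun x => rfl
        mul_smul := fun m m' x => rfl }
    have h1 := @Cfsg.Agent.Lib.Helper17.card_dvd_of_free M {x : Vp // x ≠ 0} _ act _ (by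
      intro m x hmx
      by_contra hm1
      have h2 : ((m : H) : V ≃ₗ[ZMod p] V) (x.1 : V) = (x.1 : V) :=
        congrArg (fun y : {x : Vp // x ≠ 0} => ((y.1 : Vp) : V)) hmx
      have h3 := hfpf (m : H) (fun h => hm1 (Subtype.ext h)) _ h2
      exact x.2 (Subtype.ext h3))
    have h2 : Nat.card {x : Vp // x ≠ 0} = Nat.card Vp - 1 := by
      classical
      haveI := Fintype.ofFinite Vp
      rw [Nat.card_eq_fintype_card, Nat.card_eq_fintype_card, Fintype.card_subtype_compl]
      simp
    rwa [h2] at h1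
  -- orders
  obtain ⟨φ⟩ := exists_mulEquiv_prod S M hSMbot hcomm
  have hcardS : Nat.card S = 120 := by
    haveI : Fact (Nat.Prime 5) := ⟨by norm_num⟩
    rw [Nat.card_congr e.toEquiv, Cfsg.Agent.Lib.Helper5.card_SL2, ZMod.card]
    norm_num
  have hcardG₀ : Nat.card G₀ = 120 * Nat.card M := by
    rw [← hSM, ← Nat.card_congr φ.toEquiv, Nat.card_prod, hcardS]
  have hcardH2 : Nat.card H = G₀.index * (120 * Nat.card M) := by
    rw [← hcardG₀, mul_comm, Subgroup.card_mul_index]
  have hq1 : 1 < Nat.card Vp := by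
    by_contra hcon
    have h1 : Nat.card Vp ≤ 1 := not_lt.1 hcon
    have h2 : Nat.card V ≤ 1 := by
      rw [hcardV]
      calc Nat.card Vp ^ 2 ≤ 1 ^ 2 := Nat.pow_le_pow_left h1 2
        _ = 1 := one_pow 2
    have h3 : Subsingleton V := (Finite.card_le_one_iff_subsingleton).1 h2
    exact hv₀ (Subsingleton.elim _ _)
  have harith := nearfield_arith hq1 hidx hMdvd hM30 (by rw [← hcardV, ← hcardH, hcardH2])
  have hpow : Nat.card Vp = p ^ Module.finrank (ZMod p) Vp := by
    rw [Module.natCard_eq_pow_finrank (K := ZMod p), Nat.card_zmod]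
  rcases harith with ⟨hidx1, hcases⟩ | h119
  swap
  · exfalso
    rw [hpow] at h119
    have h7 : 7 ∣ p ^ Module.finrank (ZMod p) Vp := by rw [h119]; norm_num
    have h17 : 17 ∣ p ^ Module.finrank (ZMod p) Vp := by rw [h119]; norm_num
    have e7 := (Nat.prime_dvd_prime_iff_eq (by norm_num) hp).1 ((by norm_num : Nat.Prime 7).dvd_of_dvd_pow h7)
    have e17 := (Nat.prime_dvd_prime_iff_eq (by norm_num) hp).1 ((by norm_num : Nat.Prime 17).dvd_of_dvd_pow h17)
    omega
  have htop : S ⊔ M = ⊤ := by rw [hSM]; exact Subgroup.index_eq_one.1 hidx1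
  have ψ : H ≃* Matrix.SpecialLinearGroup (Fin 2) (ZMod 5) × M :=
    ((Subgroup.topEquiv.symm.trans (MulEquiv.subgroupCongr htop.symm)).trans φ.symm).trans
      (MulEquiv.prodCongr e (MulEquiv.refl M))
  have hcyc : ∀ r : ℕ, r.Prime → Nat.card M = r → Nonempty (M ≃* Multiplicative (ZMod r)) := by
    intro r hr hM
    haveI : Fact r.Prime := ⟨hr⟩
    have h1 : IsCyclic M := isCyclic_of_prime_card hM
    have h2 := (zmodCyclicMulEquiv h1).symm
    rw [hM] at h2
    exact ⟨h2⟩
  rcases hcases with ⟨hq, hm⟩ | ⟨hq, hm⟩ | ⟨hq, hm⟩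
  · left
    refine ⟨by rw [hcardV, hq]; norm_num, ?_⟩
    haveI : Finite M := Nat.finite_of_card_ne_zero (by rw [hm]; norm_num)
    haveI : Subsingleton M := (Finite.card_le_one_iff_subsingleton).1 hm.le
    haveI : Unique M := ⟨⟨1⟩, fun x => Subsingleton.elim _ _⟩
    exact ⟨ψ.trans MulEquiv.prodUnique⟩
  · right; left
    refine ⟨by rw [hcardV, hq]; norm_num, ?_⟩
    obtain ⟨χ⟩ := hcyc 7 (by norm_num) hm
    exact ⟨ψ.trans (MulEquiv.prodCongr (MulEquiv.refl _) χ)⟩
  · right; right
    refine ⟨by rw [hcardV, hq]; norm_num, ?_⟩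
    obtain ⟨χ⟩ := hcyc 29 (by norm_num) hm
    exact ⟨ψ.trans (MulEquiv.prodCongr (MulEquiv.refl _) χ)⟩

theorem finite_of_linearEquiv_subgroup (H : Subgroup (V ≃ₗ[ZMod p] V)) : Finite H := by
  haveI : Finite (V ≃ₗ[ZMod p] V) :=
    Finite.of_injective (fun f : V ≃ₗ[ZMod p] V => (f : V → V)) DFunLike.coe_injective
  infer_instance

theorem regular_isFrobeniusComplement (H : Subgroup (V ≃ₗ[ZMod p] V))
    (hreg : ∀ v w : V, v ≠ 0 → w ≠ 0 → ∃! h : H, (h : V ≃ₗ[ZMod p] V) v = w)
    (hnt : Nontrivial H) :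
    ∃ (L : Type) (_ : Group L) (_ : Finite L) (C : Subgroup L),
      Cfsg.IsFrobeniusComplement C ∧ Nonempty (H ≃* C) := by
  haveI := finite_of_linearEquiv_subgroup H
  haveI : Nontrivial V := by
    by_contra hcon
    rw [not_nontrivial_iff_subsingleton] at hcon
    obtain ⟨a, b, hab⟩ := hnt
    apply hab
    apply Subtype.ext
    apply LinearEquiv.ext
    intro v
    exact Subsingleton.elim _ _
  apply Cfsg.Agent.Lib.Helper56.exists_frobenius_of_fpf_add (V := V) (H := H)
  intro h hh v hv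
  by_contra hv0
  obtain ⟨h0, -, huniq⟩ := hreg v v hv0 hv0
  exact hh ((huniq h hv).trans (huniq 1 (by simp)).symm)

end

end Cfsg.Agent.Lib.Helper55
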